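import Mathlib
import Cfsg.Agent.S0111

set_option autoImplicit false

namespace Cfsg.Agent.Helper18.O504C

/-- order of a Sylow 2-subgroup -/
theorem syl8 {G : Type*} [Group G] [Finite G] (h : Nat.card G = 504) (T : Sylow 2 G) :
    Nat.card (T : Subgroup G) = 8 := by
  have : Fact (Nat.Prime 2) := ⟨Nat.prime_two⟩
  rw [Sylow.card_eq_multiplicity, h]
  have hf : (504 : ℕ).factorization 2 = 3 := by
    have e : (504 : ℕ) = 2 ^ 3 * 63 := by norm_num
    rw [e, Nat.factorization_mul (by norm_num) (by norm_num), Nat.factorization_pow]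
    have h63 : (63 : ℕ).factorization 2 = 0 :=
      Nat.factorization_eq_zero_of_not_dvd (by norm_num)
    simp [h63, Nat.prime_two.factorization_self]
  rw [hf]; norm_num

/-- a simple group of order 504 has no normal subgroup of index 2 -/
theorem no_index_two {G : Type*} [Group G] [Finite G] [IsSimpleGroup G] (h : Nat.card G = 504)
    (M : Subgroup G) (hM : M.Normal) : M.index ≠ 2 := by
  rcases hM.eq_bot_or_eq_top with hb | ht
  · rw [hb, Subgroup.index_bot, h]; norm_num
  · rw [ht, Subgroup.index_top]; norm_num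

/-- the only element of order 2 in a cyclic group of order 4 -/
theorem invol_zpowers {G : Type*} [Group G] (b x : G) (hb : orderOf b = 4)
    (hx : x ∈ Subgroup.zpowers b) (hx2 : orderOf x = 2) : x = b ^ 2 := by
  obtain ⟨k, rfl⟩ := Subgroup.mem_zpowers_iff.mp hx
  have hmod : b ^ (k % (orderOf b : ℤ)) = b ^ k := zpow_mod_orderOf b k
  rw [hb] at hmod
  have h44 : ((4 : ℕ) : ℤ) = 4 := by norm_num
  rw [h44] at hmod
  have h0 : 0 ≤ k % (4 : ℤ) := Int.emod_nonneg k (by norm_num)
  have h4 : k % (4 : ℤ) < 4 := Int.emod_lt_of_pos k (by norm_num)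
  obtain ⟨n, hn⟩ : ∃ n : ℕ, k % (4 : ℤ) = n := ⟨(k % 4).toNat, (Int.toNat_of_nonneg h0).symm⟩
  rw [hn, zpow_natCast] at hmod
  have hn4 : n < 4 := by omega
  rw [← hmod] at hx2 ⊢
  interval_cases n
  · rw [pow_zero, orderOf_one] at hx2; norm_num at hx2
  · rw [pow_one, hb] at hx2; norm_num at hx2
  · rfl
  · rw [orderOf_pow' b (by norm_num : 3 ≠ 0), hb] at hx2; norm_num at hx2

/-- relative index 2 -/
theorem relIndex_two {G : Type*} [Group G] [Finite G] (h : Nat.card G = 504) (T : Sylow 2 G)
    (Q : Subgroup G) (hQT : Q ≤ (T : Subgroup G)) (hQ : Nat.card Q = 4) :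
    Q.relIndex (T : Subgroup G) = 2 := by
  have h1 := Subgroup.relIndex_mul_index hQT
  have h2 := Subgroup.index_mul_card Q
  have h3 := Subgroup.index_mul_card (T : Subgroup G)
  rw [syl8 h T, h] at h3
  rw [hQ, h] at h2
  have h4 : Q.index = 126 := by omega
  have h5 : (T : Subgroup G).index = 63 := by omega
  rw [h4, h5] at h1
  omega

/-- conjugates of an element of order 4 in a Sylow 2-subgroup of order 8 have the same square -/
theorem sq_eq {G : Type*} [Group G] [Finite G] (h : Nat.card G = 504) (T : Sylow 2 G)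
    (b y : G) (hb : orderOf b = 4) (hbT : b ∈ (T : Subgroup G)) (hy : orderOf y = 4)
    (hyT : y ∈ (T : Subgroup G)) : y ^ 2 = b ^ 2 := by
  have hQT : Subgroup.zpowers b ≤ (T : Subgroup G) := by
    rw [Subgroup.zpowers_le]; exact hbT
  have hQ : Nat.card (Subgroup.zpowers b) = 4 := by rw [Nat.card_zpowers, hb]
  have hrel := relIndex_two h T _ hQT hQ
  have hsq : ((⟨y, hyT⟩ : (T : Subgroup G)) ^ 2) ∈ (Subgroup.zpowers b).subgroupOf (T : Subgroup G) :=
    Subgroup.sq_mem_of_index_two hrel _
  rw [Subgroup.mem_subgroupOf] at hsq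
  have hsq' : y ^ 2 ∈ Subgroup.zpowers b := hsq
  apply invol_zpowers b _ hb hsq'
  rw [orderOf_pow' y (by norm_num : 2 ≠ 0), hy]
  norm_num

theorem invol_central {G : Type*} [Group G] [Finite G] [IsSimpleGroup G] (h : Nat.card G = 504)
    (u : G) (hu : orderOf u = 2) :
    ∃ T : Sylow 2 G, (T : Subgroup G) ≤ Subgroup.centralizer ({u} : Set G) := by
  classical
  have hfact : Fact (Nat.Prime 2) := ⟨Nat.prime_two⟩
  -- a Sylow 2-subgroup containing u
  have hp : IsPGroup 2 (Subgroup.zpowers u) := by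
    apply IsPGroup.of_card (n := 1)
    rw [Nat.card_zpowers, hu]; norm_num
  obtain ⟨T, hT⟩ := hp.exists_le_sylow
  have huT : u ∈ (T : Subgroup G) := hT (Subgroup.mem_zpowers u)
  have hT8 := syl8 h T
  by_cases hcen : ∀ c ∈ (T : Subgroup G), c * u = u * c
  · refine ⟨T, ?_⟩
    intro c hc
    rw [Subgroup.mem_centralizer_iff]
    intro y hy
    rw [Set.mem_singleton_iff] at hy
    subst hy
    exact (hcen c hc).symm
  · push Not at hcen
    obtain ⟨c, hcT, hcu⟩ := hcen
    -- an element with nontrivial square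
    have hex : ∃ a ∈ (T : Subgroup G), a ^ 2 ≠ 1 := by
      by_contra hno
      push Not at hno
      apply hcu
      have hc2 := hno c hcT
      have hu2 := hno u huT
      have hcu2 := hno (c * u) (mul_mem hcT huT)
      have hci : c⁻¹ = c := by rw [inv_eq_iff_mul_eq_one, ← pow_two, hc2]
      have hui : u⁻¹ = u := by rw [inv_eq_iff_mul_eq_one, ← pow_two, hu2]
      have : c * u = (c * u)⁻¹ := by
        rw [eq_comm, inv_eq_iff_mul_eq_one, ← pow_two, hcu2]
      rw [this, mul_inv_rev, hci, hui]
    obtain ⟨a, haT, ha2⟩ := hex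
    -- an element of order 4
    obtain ⟨b, hbT, hb4⟩ : ∃ b ∈ (T : Subgroup G), orderOf b = 4 := by
      have hdvd : orderOf a ∣ 8 := by
        have h1 : orderOf (⟨a, haT⟩ : (T : Subgroup G)) ∣ Nat.card (T : Subgroup G) :=
          orderOf_dvd_natCard _
        rw [hT8, Subgroup.orderOf_mk] at h1
        exact h1
      have hle : orderOf a ≤ 8 := Nat.le_of_dvd (by norm_num) hdvd
      have hpos : 0 < orderOf a := orderOf_pos a
      have hne1 : orderOf a ≠ 1 := by
        intro h1
        rw [orderOf_eq_one_iff] at h1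
        apply ha2; rw [h1, one_pow]
      have hne2 : orderOf a ≠ 2 := by
        intro h1
        apply ha2; rw [← h1]; exact pow_orderOf_eq_one a
      have hcases : orderOf a = 4 ∨ orderOf a = 8 := by
        have h8' : orderOf a ∣ 2 ^ 3 := by
          rw [show (2 : ℕ) ^ 3 = 8 by norm_num]; exact hdvd
        obtain ⟨m, hm, hpm⟩ := (Nat.dvd_prime_pow Nat.prime_two).mp h8'
        interval_cases m
        · exact absurd (by simpa using hpm) hne1
        · exact absurd (by simpa using hpm) hne2
        · left; simpa using hpm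
        · right; simpa using hpm
      rcases hcases with h4 | h8
      · exact ⟨a, haT, h4⟩
      · refine ⟨a ^ 2, pow_mem haT 2, ?_⟩
        rw [orderOf_pow' a (by norm_num : 2 ≠ 0), h8]
        norm_num
    -- b^2 is central in T
    have hcentral : ∀ d ∈ (T : Subgroup G), d * b ^ 2 = b ^ 2 * d := by
      intro d hd
      have hyT : d * b * d⁻¹ ∈ (T : Subgroup G) := mul_mem (mul_mem hd hbT) (inv_mem hd)
      have hy4 : orderOf (d * b * d⁻¹) = 4 := by
        show orderOf (MulAut.conj d b) = 4
        rw [MulEquiv.orderOf_eq]; exact hb4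
      have h1 := sq_eq h T b _ hb4 hbT hy4 hyT
      have h2 : (d * b * d⁻¹) ^ 2 = d * b ^ 2 * d⁻¹ := conj_pow
      rw [h2] at h1
      calc d * b ^ 2 = d * b ^ 2 * d⁻¹ * d := by group
        _ = b ^ 2 * d := by rw [h1]
    have hQT : Subgroup.zpowers b ≤ (T : Subgroup G) := by
      rw [Subgroup.zpowers_le]; exact hbT
    have hQ : Nat.card (Subgroup.zpowers b) = 4 := by rw [Nat.card_zpowers, hb4]
    have hrel := relIndex_two h T _ hQT hQ
    have huQ : u ∉ Subgroup.zpowers b := by
      intro huQ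
      have := invol_zpowers b u hb4 huQ hu
      rw [this] at hcu
      exact hcu (hcentral c hcT)
    rcases Cfsg.Agent.S0111.result T (Subgroup.zpowers b) hQT hrel u hu huT huQ with
      ⟨M, hMn, hMi, _⟩ | ⟨g, hg⟩
    · exact absurd hMi (no_index_two h M hMn)
    · have hgu : orderOf (g * u * g⁻¹) = 2 := by
        show orderOf (MulAut.conj g u) = 2
        rw [MulEquiv.orderOf_eq]; exact hu
      have hgb := invol_zpowers b _ hb4 hg hgu
      refine ⟨g⁻¹ • T, ?_⟩
      intro x hx
      rw [Sylow.coe_subgroup_smul, Subgroup.mem_pointwise_smul_iff_inv_smul_mem] at hx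
      have hx' : g * x * g⁻¹ ∈ (T : Subgroup G) := by
        have e : (MulAut.conj g⁻¹)⁻¹ • x = g * x * g⁻¹ := by
          rw [← map_inv, inv_inv, MulAut.smul_def, MulAut.conj_apply]
        rw [e] at hx; exact hx
      have hcomm := hcentral _ hx'
      rw [← hgb] at hcomm
      rw [Subgroup.mem_centralizer_iff]
      intro y hy
      rw [Set.mem_singleton_iff] at hy
      subst hy
      have e1 : y * x = g⁻¹ * ((g * y * g⁻¹) * (g * x * g⁻¹)) * g := by group
      have e2 : x * y = g⁻¹ * ((g * x * g⁻¹) * (g * y * g⁻¹)) * g := by group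
      rw [e1, e2, hcomm]

end Cfsg.Agent.Helper18.O504C
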