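import Mathlib
import Cfsg.Agent.Helper18.O504C

set_option autoImplicit false

namespace Cfsg.Agent.Helper18.O504D1

theorem nonab_facts {G : Type*} [Group G] [Finite G] [IsSimpleGroup G] (h : Nat.card G = 504)
    (hcen : ∀ u : G, orderOf u = 2 →
      ∃ T : Sylow 2 G, (T : Subgroup G) ≤ Subgroup.centralizer ({u} : Set G))
    (t : G) (ht : orderOf t = 2) (T₀ : Sylow 2 G)
    (hT₀ : Subgroup.centralizer ({t} : Set G) = (T₀ : Subgroup G))
    (hna : ¬ ∀ a ∈ (T₀ : Subgroup G), ∀ b ∈ (T₀ : Subgroup G), a * b = b * a) :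
    (∀ u : G, orderOf u = 2 → ∃ g : G, g * t * g⁻¹ = u) ∧
      (∀ g ∈ (T₀ : Subgroup G), g ^ 2 = 1 ∨ g ^ 2 = t) ∧ ∃ v : G, v ^ 2 = t := by
  classical
  have hfact : Fact (Nat.Prime 2) := ⟨Nat.prime_two⟩
  have hmemC : ∀ a : G, a ∈ (T₀ : Subgroup G) ↔ a * t = t * a := by
    intro a
    rw [← hT₀, Subgroup.mem_centralizer_iff]
    constructor
    · intro hh; exact (hh t (Set.mem_singleton t)).symm
    · intro hh y hy
      rw [Set.mem_singleton_iff] at hy
      subst hy
      exact hh.symm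
  have hT8 := Cfsg.Agent.Helper18.O504C.syl8 h T₀
  have htT : t ∈ (T₀ : Subgroup G) := (hmemC t).mpr rfl
  -- an element with nontrivial square
  have hex : ∃ a ∈ (T₀ : Subgroup G), a ^ 2 ≠ 1 := by
    by_contra hno
    push Not at hno
    apply hna
    intro c hcT u huT
    have hc2 := hno c hcT
    have hu2 := hno u huT
    have hcu2 := hno (c * u) (mul_mem hcT huT)
    have hci : c⁻¹ = c := by rw [inv_eq_iff_mul_eq_one, ← pow_two, hc2]
    have hui : u⁻¹ = u := by rw [inv_eq_iff_mul_eq_one, ← pow_two, hu2]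
    have : c * u = (c * u)⁻¹ := by
      rw [eq_comm, inv_eq_iff_mul_eq_one, ← pow_two, hcu2]
    rw [this, mul_inv_rev, hci, hui]
  obtain ⟨a, haT, ha2⟩ := hex
  have hord : ∀ x ∈ (T₀ : Subgroup G),
      orderOf x = 1 ∨ orderOf x = 2 ∨ orderOf x = 4 ∨ orderOf x = 8 := by
    intro x hx
    have hdvd : orderOf x ∣ 8 := by
      have h1 : orderOf (⟨x, hx⟩ : (T₀ : Subgroup G)) ∣ Nat.card (T₀ : Subgroup G) :=
        orderOf_dvd_natCard _
      rw [hT8, Subgroup.orderOf_mk] at h1
      exact h1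
    have h8' : orderOf x ∣ 2 ^ 3 := by
      rw [show (2 : ℕ) ^ 3 = 8 by norm_num]; exact hdvd
    obtain ⟨m, hm, hpm⟩ := (Nat.dvd_prime_pow Nat.prime_two).mp h8'
    interval_cases m
    · left; simpa using hpm
    · right; left; simpa using hpm
    · right; right; left; simpa using hpm
    · right; right; right; simpa using hpm
  have hno8 : ∀ x ∈ (T₀ : Subgroup G), orderOf x ≠ 8 := by
    intro x hx h8
    apply hna
    have hle : Subgroup.zpowers x ≤ (T₀ : Subgroup G) := by
      rw [Subgroup.zpowers_le]; exact hx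
    have heq : Subgroup.zpowers x = (T₀ : Subgroup G) := by
      apply Subgroup.eq_of_le_of_card_ge hle
      rw [Nat.card_zpowers, h8, hT8]
    intro c hc d hd
    rw [← heq] at hc hd
    obtain ⟨i, rfl⟩ := Subgroup.mem_zpowers_iff.mp hc
    obtain ⟨j, rfl⟩ := Subgroup.mem_zpowers_iff.mp hd
    rw [← zpow_add, ← zpow_add, add_comm]
  obtain ⟨b, hbT, hb4⟩ : ∃ b ∈ (T₀ : Subgroup G), orderOf b = 4 := by
    rcases hord a haT with h1 | h1 | h1 | h1
    · exfalso; apply ha2; rw [orderOf_eq_one_iff] at h1; rw [h1, one_pow]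
    · exfalso; apply ha2; rw [← h1]; exact pow_orderOf_eq_one a
    · exact ⟨a, haT, h1⟩
    · exact absurd h1 (hno8 a haT)
  have hQT : Subgroup.zpowers b ≤ (T₀ : Subgroup G) := by
    rw [Subgroup.zpowers_le]; exact hbT
  have hQ : Nat.card (Subgroup.zpowers b) = 4 := by rw [Nat.card_zpowers, hb4]
  have hrel := Cfsg.Agent.Helper18.O504C.relIndex_two h T₀ _ hQT hQ
  -- central involutions of T₀ equal b^2
  have hL : ∀ z ∈ (T₀ : Subgroup G), orderOf z = 2 →
      (∀ a ∈ (T₀ : Subgroup G), a * z = z * a) → z = b ^ 2 := by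
    intro z hzT hz2 hzc
    by_cases hzQ : z ∈ Subgroup.zpowers b
    · exact Cfsg.Agent.Helper18.O504C.invol_zpowers b z hb4 hzQ hz2
    · exfalso
      apply hna
      have hz2' : z * z = 1 := by rw [← pow_two, ← hz2]; exact pow_orderOf_eq_one z
      have hdec : ∀ x ∈ (T₀ : Subgroup G), ∃ q ∈ Subgroup.zpowers b, x = q ∨ x = z * q := by
        intro x hx
        by_cases hxQ : x ∈ Subgroup.zpowers b
        · exact ⟨x, hxQ, Or.inl rfl⟩
        · have hm := Subgroup.mul_mem_iff_of_index_two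
            (H := (Subgroup.zpowers b).subgroupOf (T₀ : Subgroup G)) hrel
            (a := ⟨z, hzT⟩) (b := ⟨x, hx⟩)
          have hzx : z * x ∈ Subgroup.zpowers b := by
            have h5 := hm.mpr (by
              rw [Subgroup.mem_subgroupOf, Subgroup.mem_subgroupOf]
              exact ⟨fun hh => absurd hh hzQ, fun hh => absurd hh hxQ⟩)
            rw [Subgroup.mem_subgroupOf] at h5
            exact h5
          refine ⟨z * x, hzx, Or.inr ?_⟩
          rw [← mul_assoc, hz2', one_mul]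
      intro c hc d hd
      obtain ⟨q, hq, hcq⟩ := hdec c hc
      obtain ⟨q', hq', hdq⟩ := hdec d hd
      have cqq : Commute q q' := by
        obtain ⟨i, rfl⟩ := Subgroup.mem_zpowers_iff.mp hq
        obtain ⟨j, rfl⟩ := Subgroup.mem_zpowers_iff.mp hq'
        show b ^ i * b ^ j = b ^ j * b ^ i
        rw [← zpow_add, ← zpow_add, add_comm]
      have cqz : Commute q z := hzc q (hQT hq)
      have cqz' : Commute q' z := hzc q' (hQT hq')
      rcases hcq with rfl | rfl <;> rcases hdq with rfl | rfl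
      · exact cqq.eq
      · exact (cqz.mul_right cqq).eq
      · exact (Commute.mul_left cqz'.symm cqq).eq
      · exact (Commute.mul_left ((Commute.refl z).mul_right cqz'.symm)
          (cqz.mul_right cqq)).eq
  have htb : t = b ^ 2 := hL t htT ht (fun a ha => (hmemC a).mp ha)
  refine ⟨?_, ?_, ⟨b, htb.symm⟩⟩
  · intro u hu
    obtain ⟨T', hT'⟩ := hcen u hu
    obtain ⟨g, hg⟩ := MulAction.exists_smul_eq G T₀ T'
    have hmem : ∀ a ∈ (T₀ : Subgroup G), g * a * g⁻¹ ∈ (T' : Subgroup G) := by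
      intro a ha
      rw [← hg, Sylow.coe_subgroup_smul, Subgroup.mem_pointwise_smul_iff_inv_smul_mem]
      have e : (MulAut.conj g)⁻¹ • (g * a * g⁻¹) = a := by
        rw [← map_inv, MulAut.smul_def, MulAut.conj_apply]; group
      rw [e]; exact ha
    have hcomm : ∀ a ∈ (T₀ : Subgroup G), a * (g⁻¹ * u * g) = (g⁻¹ * u * g) * a := by
      intro a ha
      have h1 := hT' (hmem a ha)
      rw [Subgroup.mem_centralizer_iff] at h1
      have h2 := h1 u (Set.mem_singleton u)
      have e1 : a * (g⁻¹ * u * g) = g⁻¹ * ((g * a * g⁻¹) * u) * g := by group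
      have e2 : (g⁻¹ * u * g) * a = g⁻¹ * (u * (g * a * g⁻¹)) * g := by group
      rw [e1, e2, h2]
    have hzT : g⁻¹ * u * g ∈ (T₀ : Subgroup G) := by
      rw [hmemC]; exact (hcomm t htT).symm
    have hz2 : orderOf (g⁻¹ * u * g) = 2 := by
      have e : g⁻¹ * u * g = MulAut.conj g⁻¹ u := by rw [MulAut.conj_apply, inv_inv]
      rw [e, MulEquiv.orderOf_eq]; exact hu
    have hz := hL _ hzT hz2 hcomm
    refine ⟨g, ?_⟩
    rw [htb, ← hz]; group
  · intro g hg
    rcases hord g hg with h1 | h1 | h1 | h1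
    · left; rw [orderOf_eq_one_iff] at h1; rw [h1, one_pow]
    · left; rw [← h1]; exact pow_orderOf_eq_one g
    · right; rw [htb]; exact Cfsg.Agent.Helper18.O504C.sq_eq h T₀ b g hb4 hbT h1 hg
    · exact absurd h1 (hno8 g hg)

end Cfsg.Agent.Helper18.O504D1
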