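import Mathlib
import Cfsg.Prelude.Def_GeometricClasses
import Cfsg.Agent.Helper4.OrthPlane

set_option autoImplicit false

namespace Cfsg.Agent.Helper18.OmMd

open Matrix
open Cfsg.Agent.Helper4.OrthPlane

variable {ι : Type} [Fintype ι] [DecidableEq ι] {F : Type*} [Field F]

/-- (M2b of S5691, frame as hypothesis) In characteristic 2, three mutually orthogonal hyperbolic
pairs give, for all `lam mu`, a triangle of norm-1 vectors with sides `lam, lam, mu`. -/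
theorem triangle_of_frame (Q : (ι → F) → F) (hQ : Cfsg.Geo.IsNondegenerateQuadraticForm Q)
    (hch : (2 : F) = 0)
    (hfr : ∃ e₁ f₁ e₂ f₂ e₃ f₃ : ι → F, Q e₁ = 0 ∧ Q f₁ = 0 ∧ Q e₂ = 0 ∧ Q f₂ = 0 ∧ Q e₃ = 0 ∧
      Q f₃ = 0 ∧ Bf Q hQ e₁ f₁ = 1 ∧ Bf Q hQ e₂ f₂ = 1 ∧ Bf Q hQ e₃ f₃ = 1 ∧
      Bf Q hQ e₁ e₂ = 0 ∧ Bf Q hQ e₁ f₂ = 0 ∧ Bf Q hQ f₁ e₂ = 0 ∧ Bf Q hQ f₁ f₂ = 0 ∧
      Bf Q hQ e₁ e₃ = 0 ∧ Bf Q hQ e₁ f₃ = 0 ∧ Bf Q hQ f₁ e₃ = 0 ∧ Bf Q hQ f₁ f₃ = 0 ∧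
      Bf Q hQ e₂ e₃ = 0 ∧ Bf Q hQ e₂ f₃ = 0 ∧ Bf Q hQ f₂ e₃ = 0 ∧ Bf Q hQ f₂ f₃ = 0)
    (lam mu : F) :
    ∃ a b c : ι → F, Q a = 1 ∧ Q b = 1 ∧ Q c = 1 ∧ a ≠ c ∧ c ≠ b ∧ a ≠ b ∧
      Bf Q hQ a c = lam ∧ Bf Q hQ c b = lam ∧ Bf Q hQ a b = mu := by
  obtain ⟨e₁, f₁, e₂, f₂, e₃, f₃, he₁, hf₁, he₂, hf₂, he₃, hf₃, h11, h22, h33,
    hee12, hef12, hfe12, hff12, hee13, hef13, hfe13, hff13, hee23, hef23, hfe23, hff23⟩ := hfr
  -- swapped pairings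
  have h11' : Bf Q hQ f₁ e₁ = 1 := by rw [Bf_symm, h11]
  have h22' : Bf Q hQ f₂ e₂ = 1 := by rw [Bf_symm, h22]
  have h33' : Bf Q hQ f₃ e₃ = 1 := by rw [Bf_symm, h33]
  have hee12' : Bf Q hQ e₂ e₁ = 0 := by rw [Bf_symm, hee12]
  have hef12' : Bf Q hQ f₂ e₁ = 0 := by rw [Bf_symm, hef12]
  have hfe12' : Bf Q hQ e₂ f₁ = 0 := by rw [Bf_symm, hfe12]
  have hff12' : Bf Q hQ f₂ f₁ = 0 := by rw [Bf_symm, hff12]
  have hee13' : Bf Q hQ e₃ e₁ = 0 := by rw [Bf_symm, hee13]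
  have hef13' : Bf Q hQ f₃ e₁ = 0 := by rw [Bf_symm, hef13]
  have hfe13' : Bf Q hQ e₃ f₁ = 0 := by rw [Bf_symm, hfe13]
  have hff13' : Bf Q hQ f₃ f₁ = 0 := by rw [Bf_symm, hff13]
  have hee23' : Bf Q hQ e₃ e₂ = 0 := by rw [Bf_symm, hee23]
  have hef23' : Bf Q hQ f₃ e₂ = 0 := by rw [Bf_symm, hef23]
  have hfe23' : Bf Q hQ e₃ f₂ = 0 := by rw [Bf_symm, hfe23]
  have hff23' : Bf Q hQ f₃ f₂ = 0 := by rw [Bf_symm, hff23]
  have hs : ∀ w : ι → F, Q w = 0 → Bf Q hQ w w = 0 := by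
    intro w hw; rw [Bf_self, hw, mul_zero]
  have s1 := hs e₁ he₁
  have s2 := hs f₁ hf₁
  have s3 := hs e₂ he₂
  have s4 := hs f₂ hf₂
  have s5 := hs e₃ he₃
  have s6 := hs f₃ hf₃
  have hQa : Q (e₁ + f₁) = 1 := by
    rw [Q_add Q hQ, he₁, hf₁, h11]; ring
  have hQc : Q (e₁ + (1 + lam) • f₁ + e₂ + lam • f₂) = 1 := by
    simp only [Q_add Q hQ, hQ.smul, map_add, map_smul, LinearMap.add_apply, LinearMap.smul_apply,
      smul_eq_mul, he₁, hf₁, he₂, hf₂, h11, h22, hee12, hef12, hfe12, hff12]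
    linear_combination lam * hch
  have hQb : Q (e₁ + (1 + mu) • f₁ + mu • f₂ + e₃ + mu • f₃) = 1 := by
    simp only [Q_add Q hQ, hQ.smul, map_add, map_smul, LinearMap.add_apply, LinearMap.smul_apply,
      smul_eq_mul, he₁, hf₁, he₂, hf₂, he₃, hf₃, h11, h33, hef12, hff12, hee13, hef13, hfe13,
      hff13, hfe23, hff23]
    linear_combination mu * hch
  have hac : Bf Q hQ (e₁ + f₁) (e₁ + (1 + lam) • f₁ + e₂ + lam • f₂) = lam := by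
    simp only [map_add, map_smul, LinearMap.add_apply, LinearMap.smul_apply, smul_eq_mul,
      s1, s2, h11, h11', hee12, hef12, hfe12, hff12]
    linear_combination hch
  have hcb : Bf Q hQ (e₁ + (1 + lam) • f₁ + e₂ + lam • f₂)
      (e₁ + (1 + mu) • f₁ + mu • f₂ + e₃ + mu • f₃) = lam := by
    simp only [map_add, map_smul, LinearMap.add_apply, LinearMap.smul_apply, smul_eq_mul,
      s1, s2, s3, s4, h11, h11', h22, h22', hee12, hef12, hfe12, hff12, hee12', hef12', hfe12',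
      hff12', hee13, hef13, hfe13, hff13, hee23, hef23, hfe23, hff23]
    linear_combination (1 + mu) * hch
  have hab : Bf Q hQ (e₁ + f₁) (e₁ + (1 + mu) • f₁ + mu • f₂ + e₃ + mu • f₃) = mu := by
    simp only [map_add, map_smul, LinearMap.add_apply, LinearMap.smul_apply, smul_eq_mul,
      s1, s2, h11, h11', hef12, hff12, hee13, hef13, hfe13, hff13]
    linear_combination hch
  -- separating functionals
  have haf2 : Bf Q hQ (e₁ + f₁) f₂ = 0 := by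
    simp only [map_add, LinearMap.add_apply, hef12, hff12, add_zero]
  have hcf2 : Bf Q hQ (e₁ + (1 + lam) • f₁ + e₂ + lam • f₂) f₂ = 1 := by
    simp only [map_add, map_smul, LinearMap.add_apply, LinearMap.smul_apply, smul_eq_mul,
      hef12, hff12, h22, s4]
    ring
  have haf3 : Bf Q hQ (e₁ + f₁) f₃ = 0 := by
    simp only [map_add, LinearMap.add_apply, hef13, hff13, add_zero]
  have hcf3 : Bf Q hQ (e₁ + (1 + lam) • f₁ + e₂ + lam • f₂) f₃ = 0 := by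
    simp only [map_add, map_smul, LinearMap.add_apply, LinearMap.smul_apply, smul_eq_mul,
      hef13, hff13, hef23, hff23]
    ring
  have hbf3 : Bf Q hQ (e₁ + (1 + mu) • f₁ + mu • f₂ + e₃ + mu • f₃) f₃ = 1 := by
    simp only [map_add, map_smul, LinearMap.add_apply, LinearMap.smul_apply, smul_eq_mul,
      hef13, hff13, hff23, h33, s6]
    ring
  refine ⟨e₁ + f₁, e₁ + (1 + mu) • f₁ + mu • f₂ + e₃ + mu • f₃,
    e₁ + (1 + lam) • f₁ + e₂ + lam • f₂, hQa, hQb, hQc, ?_, ?_, ?_, hac, hcb, hab⟩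
  · intro h
    rw [h, hcf2] at haf2
    exact one_ne_zero haf2
  · intro h
    rw [h, hbf3] at hcf3
    exact one_ne_zero hcf3
  · intro h
    rw [h, hbf3] at haf3
    exact one_ne_zero haf3

end Cfsg.Agent.Helper18.OmMd
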