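import Mathlib
import Cfsg.Agent.Helper18.PSL2Aut2

set_option autoImplicit false

namespace Cfsg.Agent.Helper18.OutPSL2

open Matrix Cfsg.Agent.Helper12

variable {F : Type*} [Field F]

theorem exists_sq_sub_sq [Finite F] (x : F) : ∃ a b : F, x = a ^ 2 - b ^ 2 := by
  by_cases h2 : (2 : F) = 0
  · have hchar : ringChar F = 2 := by
      have hd : ringChar F ∣ 2 := ringChar.dvd (by exact_mod_cast h2)
      exact ((Nat.dvd_prime Nat.prime_two).mp hd).resolve_left CharP.ringChar_ne_one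
    obtain ⟨a, ha⟩ := FiniteField.isSquare_of_char_two hchar x
    exact ⟨a, 0, by rw [ha]; ring⟩
  · exact ⟨(x + 1) / 2, (x - 1) / 2, by field_simp; ring⟩

theorem analysis [Fintype F] (Ψ : MulAut (Matrix.ProjectiveSpecialLinearGroup (Fin 2) F))
    (hU : ∀ b : F, ∃ b' : F, Ψ (pr (sl2U b)) = pr (sl2U b'))
    (hL : ∀ b : F, ∃ b' : F, Ψ (pr (lo b)) = pr (lo b')) :
    ∃ (c : Fˣ) (τ : F →+* F), ∀ X : Matrix.SpecialLinearGroup (Fin 2) F,
      Ψ (pr X) = pr (thetaHom c τ X) := by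
  choose α hα using hU
  choose β hβ using hL
  have α_add : ∀ a b, α (a + b) = α a + α b := by
    intro a b
    apply prU_inj
    rw [← hα (a + b), ← sl2U_mul a b, map_mul, map_mul, hα a, hα b, ← map_mul, sl2U_mul]
  have α_inj : Function.Injective α := by
    intro a b h
    apply prU_inj
    apply Ψ.injective
    rw [hα, hα, h]
  have α_zero : α 0 = 0 := by
    have h := α_add 0 0
    rw [add_zero] at h
    linear_combination -h
  have α_ne : ∀ t, t ≠ 0 → α t ≠ 0 := fun t ht h => ht (α_inj (h.trans α_zero.symm))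
  have β_add : ∀ a b, β (a + b) = β a + β b := by
    intro a b
    apply prL_inj
    rw [← hβ (a + b), ← lo_mul a b, map_mul, map_mul, hβ a, hβ b, ← map_mul, lo_mul]
  have β_zero : β 0 = 0 := by
    have h := β_add 0 0
    rw [add_zero] at h
    linear_combination -h
  have hc0 : α 1 ≠ 0 := α_ne 1 one_ne_zero
  have R1 : ∀ t : F, t ≠ 0 → 1 + α t * β (-t⁻¹) = 0 := by
    intro t ht
    have e2 := congrArg (fun X => Ψ (pr X)) (nE_U ht)
    simp only [map_mul, hα, hβ] at e2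
    simp only [← map_mul] at e2
    exact test_entry _ _ _ _ hc0 ((pr_eq_iff _ _).mp e2)
  have hβn : ∀ t : F, t ≠ 0 → β (-t⁻¹) = -(α t)⁻¹ := by
    intro t ht
    have h := R1 t ht
    have hne := α_ne t ht
    apply mul_right_cancel₀ hne
    rw [neg_mul, inv_mul_cancel₀ hne]
    linear_combination h
  have Ψn : ∀ t : F, t ≠ 0 → Ψ (pr (nE t)) = pr (nE (α t)) := by
    intro t ht
    rw [← nE_eq ht, ← nE_eq (α_ne t ht)]
    simp only [map_mul, hα, hβ, hβn t ht]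
  have Ψh : ∀ t : F, t ≠ 0 → Ψ (pr (hE t)) = pr (hE (α t * (α 1)⁻¹)) := by
    intro t ht
    have e : hE t = nE t * (nE (1 : F))⁻¹ := by
      have h := nE_mul ht (one_ne_zero (α := F))
      rw [inv_one, mul_one] at h
      rw [h, mul_inv_cancel_right]
    have e' : hE (α t * (α 1)⁻¹) = nE (α t) * (nE (α 1))⁻¹ := by
      rw [nE_mul (α_ne t ht) hc0, mul_inv_cancel_right]
    rw [e, e']
    simp only [map_mul, map_inv]
    rw [Ψn t ht, Ψn 1 one_ne_zero]
  have R2 : ∀ t b : F, t ≠ 0 → (α t * (α 1)⁻¹) ^ 2 * α b = α (t ^ 2 * b) := by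
    intro t b ht
    have hs : α t * (α 1)⁻¹ ≠ 0 := mul_ne_zero (α_ne t ht) (inv_ne_zero hc0)
    have e2 := congrArg (fun X => Ψ (pr X)) (hE_conj ht b)
    simp only [map_mul, hα, Ψh t ht] at e2
    have e3 : pr (hE (α t * (α 1)⁻¹)) * pr (sl2U (α b)) =
        pr (sl2U ((α t * (α 1)⁻¹) ^ 2 * α b)) * pr (hE (α t * (α 1)⁻¹)) := by
      rw [← map_mul, hE_conj hs, map_mul]
    rw [e3] at e2
    exact prU_inj (mul_right_cancel e2)
  have τsq : ∀ t b : F, α (t ^ 2 * b) * (α 1)⁻¹ = (α t * (α 1)⁻¹) ^ 2 * (α b * (α 1)⁻¹) := by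
    intro t b
    by_cases ht : t = 0
    · subst ht
      rw [zero_pow two_ne_zero, zero_mul, α_zero]; ring
    · rw [← R2 t b ht]; ring
  have τsub : ∀ a b : F, α (a - b) = α a - α b := by
    intro a b
    have h := α_add (a - b) b
    rw [sub_add_cancel] at h
    linear_combination -h
  have τsq1 : ∀ t : F, α (t ^ 2) * (α 1)⁻¹ = (α t * (α 1)⁻¹) ^ 2 := by
    intro t
    have h := τsq t 1
    rw [mul_one, mul_inv_cancel₀ hc0, mul_one] at h
    exact h
  have τmul : ∀ x y : F, α (x * y) * (α 1)⁻¹ = (α x * (α 1)⁻¹) * (α y * (α 1)⁻¹) := by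
    intro x y
    obtain ⟨s₁, s₂, hx⟩ := exists_sq_sub_sq x
    have h1 := τsq s₁ y
    have h2 := τsq s₂ y
    have h3 := τsq1 s₁
    have h4 := τsq1 s₂
    have e1 : α (x * y) = α (s₁ ^ 2 * y) - α (s₂ ^ 2 * y) := by rw [hx, sub_mul, τsub]
    have e2 : α x = α (s₁ ^ 2) - α (s₂ ^ 2) := by rw [hx, τsub]
    rw [e1, e2]
    linear_combination h1 - h2 - (α y * (α 1)⁻¹) * h3 + (α y * (α 1)⁻¹) * h4
  let τ : F →+* F :=
    { toFun := fun x => α x * (α 1)⁻¹
      map_one' := mul_inv_cancel₀ hc0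
      map_mul' := τmul
      map_zero' := by rw [α_zero, zero_mul]
      map_add' := fun a b => by rw [α_add]; ring }
  have hτ : ∀ x, τ x = α x * (α 1)⁻¹ := fun x => rfl
  have hβf : ∀ s : F, β s = (α 1)⁻¹ * τ s := by
    intro s
    by_cases hs : s = 0
    · subst hs
      rw [β_zero, map_zero, mul_zero]
    · have ht : (-s⁻¹ : F) ≠ 0 := neg_ne_zero.mpr (inv_ne_zero hs)
      have h := R1 (-s⁻¹) ht
      have e : -(-s⁻¹)⁻¹ = s := by rw [inv_neg, neg_neg, inv_inv]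
      rw [e] at h
      have hτs : τ s ≠ 0 := (map_ne_zero τ).mpr hs
      have h5 : τ (-s⁻¹) = -(τ s)⁻¹ := by rw [map_neg, map_inv₀]
      rw [hτ (-s⁻¹)] at h5
      have h6 : α (-s⁻¹) = -(τ s)⁻¹ * α 1 := by
        rw [← h5, inv_mul_cancel_right₀ hc0]
      rw [h6] at h
      have hX : τ s * (τ s)⁻¹ = 1 := mul_inv_cancel₀ hτs
      rw [eq_inv_mul_iff_mul_eq₀ hc0]
      linear_combination (-(τ s)) * h - (α 1 * β s) * hX
  refine ⟨Units.mk0 (α 1) hc0, τ, ?_⟩
  have hgen : MonoidHom.eqLocus (Ψ.toMonoidHom.comp pr)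
      (pr.comp (thetaHom (Units.mk0 (α 1) hc0) τ)) = ⊤ := by
    apply sl2_generate wE (by rw [wE_val]; simp)
    · intro y
      show Ψ (pr (sl2U y)) = pr (thetaHom (Units.mk0 (α 1) hc0) τ (sl2U y))
      rw [hα, theta_U, Units.val_mk0, hτ, mul_comm (α y), ← mul_assoc, mul_inv_cancel₀ hc0, one_mul]
    · intro y
      show Ψ (pr (wE * sl2U y * wE⁻¹)) = pr (thetaHom (Units.mk0 (α 1) hc0) τ (wE * sl2U y * wE⁻¹))
      rw [wE_conj, hβ, theta_L, hβf, Units.val_inv_eq_inv_val, Units.val_mk0]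
  intro X
  have hX : X ∈ MonoidHom.eqLocus (Ψ.toMonoidHom.comp pr)
      (pr.comp (thetaHom (Units.mk0 (α 1) hc0) τ)) := by
    rw [hgen]; exact Subgroup.mem_top X
  exact hX

theorem ringHom_eq_frob [Fintype F] {p : ℕ} [Fact p.Prime] [CharP F p] (τ : F →+* F) :
    ∃ k : ℕ, ∀ x : F, τ x = x ^ p ^ k := by
  letI : Algebra (ZMod p) F := ZMod.algebra F p
  let τA : F →ₐ[ZMod p] F :=
    { τ with
      commutes' := fun r => by
        have h := RingHom.congr_fun
          (Subsingleton.elim (τ.comp (algebraMap (ZMod p) F)) (algebraMap (ZMod p) F)) r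
        exact h }
  obtain ⟨n, hn⟩ := (FiniteField.bijective_frobeniusAlgHom_pow (ZMod p) F).2 τA
  have hn' : FiniteField.frobeniusAlgHom (ZMod p) F ^ n.1 = τA := hn
  refine ⟨n.1, fun x => ?_⟩
  have h1 : τ x = τA x := rfl
  have h2 : (FiniteField.frobeniusAlgHom (ZMod p) F ^ n.1) x = x ^ p ^ n.1 := by
    rw [AlgHom.coe_pow, FiniteField.coe_frobeniusAlgHom, pow_iterate, ZMod.card]
  rw [h1, ← hn']
  exact h2

theorem structure_thm [Fintype F] {p f : ℕ} [Fact p.Prime] (hF : Fintype.card F = p ^ f)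
    (ψ : MulAut (Matrix.ProjectiveSpecialLinearGroup (Fin 2) F)) :
    ∃ (g : Matrix.ProjectiveSpecialLinearGroup (Fin 2) F) (c : Fˣ) (τ : F →+* F) (k : ℕ),
      (∀ x : F, τ x = x ^ p ^ k) ∧
      ∀ X : Matrix.SpecialLinearGroup (Fin 2) F, g * ψ (pr X) * g⁻¹ = pr (thetaHom c τ X) := by
  haveI : CharP F p := charP_of_card_eq_prime_pow hF
  obtain ⟨g, h1, h2⟩ := exists_normalize hF ψ
  obtain ⟨c, τ, hτ⟩ := analysis (MulAut.conj g * ψ) h1 h2
  obtain ⟨k, hk⟩ := ringHom_eq_frob (p := p) τ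
  exact ⟨g, c, τ, k, hk, fun X => hτ X⟩

end Cfsg.Agent.Helper18.OutPSL2
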