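import Mathlib
import Cfsg.Prelude
import Cfsg.Agent.Helper18.PSL2Aut3

set_option autoImplicit false

namespace Cfsg.Agent.Helper18.OutPSL2

open Matrix Cfsg.Agent.Helper12

variable {F : Type*} [Field F]

/-- `ψ` raises squared traces to the `p^k`-th power. -/
def Rel (p k : ℕ) (ψ : MulAut (Matrix.ProjectiveSpecialLinearGroup (Fin 2) F)) : Prop :=
  ∀ X Y : Matrix.SpecialLinearGroup (Fin 2) F, ψ (pr X) = pr Y →
    (Y : Matrix (Fin 2) (Fin 2) F).trace ^ 2 = ((X : Matrix (Fin 2) (Fin 2) F).trace ^ 2) ^ p ^ k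

theorem rel_conj (p : ℕ) (g : Matrix.ProjectiveSpecialLinearGroup (Fin 2) F) :
    Rel p 0 (MulAut.conj g) := by
  intro X Y h
  obtain ⟨Z, rfl⟩ := pr_surj g
  rw [MulAut.conj_apply, ← map_inv, ← map_mul, ← map_mul] at h
  rw [pow_zero, pow_one, ← tr_sq_of_pr_eq h, sl2_trace_conj]

theorem rel_one (p : ℕ) : Rel p 0 (1 : MulAut (Matrix.ProjectiveSpecialLinearGroup (Fin 2) F)) := by
  intro X Y h
  rw [MulAut.one_apply] at h
  rw [pow_zero, pow_one, tr_sq_of_pr_eq h]

theorem rel_mul {p k l : ℕ} {ψ ψ' : MulAut (Matrix.ProjectiveSpecialLinearGroup (Fin 2) F)}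
    (h : Rel p k ψ) (h' : Rel p l ψ') : Rel p (k + l) (ψ * ψ') := by
  intro X Y hXY
  obtain ⟨Y', hY'⟩ := pr_surj (ψ' (pr X))
  have h1 := h' X Y' hY'.symm
  have h2 := h Y' Y (by rw [hY']; exact hXY)
  rw [h2, h1, ← pow_mul, pow_add, mul_comm (p ^ k) (p ^ l)]

theorem rel_theta [Finite F] {p k : ℕ} (c : Fˣ) (τ : F →+* F) (hτ : ∀ x : F, τ x = x ^ p ^ k) :
    Rel p k (thetaAut c τ) := by
  intro X Y h
  rw [thetaAut_pr] at h
  rw [← tr_sq_of_pr_eq h, theta_trace, hτ]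
  ring

theorem pow_frob_mul [Fintype F] {p f : ℕ} (hF : Fintype.card F = p ^ f) (a : ℕ) (x : F) :
    x ^ p ^ (f * a) = x := by
  induction a generalizing x with
  | zero => simp
  | succ a ih =>
    rw [mul_add, mul_one, pow_add, pow_mul, ih, ← hF, FiniteField.pow_card]

theorem frob_period [Fintype F] {p f : ℕ} [Fact p.Prime] (hf : 1 ≤ f) (hF : Fintype.card F = p ^ f)
    (k j : ℕ) (h : ∀ x : F, x ^ p ^ k = x ^ p ^ (k + j)) : f ∣ j := by
  classical
  have hp : p.Prime := Fact.out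
  have : CharP F p := charP_of_card_eq_prime_pow hF
  have key2 : ∀ x : F, x ^ p ^ j = x := by
    intro x
    have h' : (x ^ p ^ j) ^ p ^ k = x ^ p ^ k := by
      rw [h x, pow_add, mul_comm (p ^ k) (p ^ j), pow_mul]
    have h'' : iterateFrobenius F p k (x ^ p ^ j) = iterateFrobenius F p k x := h'
    exact (iterateFrobenius F p k).injective h''
  obtain ⟨g, hg⟩ := IsCyclic.exists_generator (α := Fˣ)
  have hord : orderOf g = p ^ f - 1 := by
    rw [orderOf_eq_card_of_forall_mem_zpowers hg, Nat.card_eq_fintype_card, Fintype.card_units, hF]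
  have hr : ∀ x : F, x ^ p ^ (j % f) = x := by
    intro x
    have h1 := key2 x
    rw [← Nat.div_add_mod j f, pow_add, pow_mul, pow_frob_mul hF] at h1
    exact h1
  by_contra hnd
  have hr0 : j % f ≠ 0 := fun h0 => hnd (Nat.dvd_of_mod_eq_zero h0)
  have hlt : j % f < f := Nat.mod_lt _ (by omega)
  have hp1 : 2 ≤ p ^ (j % f) := by
    calc 2 ≤ p := hp.two_le
      _ = p ^ 1 := (pow_one p).symm
      _ ≤ p ^ (j % f) := Nat.pow_le_pow_right hp.pos (by omega)
  have hg2 : g ^ (p ^ (j % f) - 1) = 1 := by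
    apply Units.ext
    rw [Units.val_pow_eq_pow_val, Units.val_one]
    apply mul_left_cancel₀ g.ne_zero
    rw [mul_one, ← pow_succ', Nat.sub_add_cancel (by omega), hr]
  have hdvd := orderOf_dvd_of_pow_eq_one hg2
  rw [hord] at hdvd
  have hle := Nat.le_of_dvd (by omega) hdvd
  have hpow : p ^ (j % f) < p ^ f := Nat.pow_lt_pow_right hp.one_lt hlt
  omega

theorem rel_unique [Fintype F] {p f : ℕ} [Fact p.Prime] (hf : 1 ≤ f) (hF : Fintype.card F = p ^ f)
    {k l : ℕ} {ψ : MulAut (Matrix.ProjectiveSpecialLinearGroup (Fin 2) F)}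
    (hk : Rel p k ψ) (hl : Rel p l ψ) : (k : ZMod f) = (l : ZMod f) := by
  have : CharP F p := charP_of_card_eq_prime_pow hF
  have hsq : ∀ t : F, (t ^ 2) ^ p ^ k = (t ^ 2) ^ p ^ l := by
    intro t
    obtain ⟨Y, hY⟩ := pr_surj (ψ (pr (sl2mk t (-1) 1 0 (by ring))))
    have h1 := hk _ Y hY.symm
    have h2 := hl _ Y hY.symm
    have htr : ((sl2mk t (-1) 1 0 (by ring) : Matrix.SpecialLinearGroup (Fin 2) F) :
        Matrix (Fin 2) (Fin 2) F).trace = t := by
      rw [sl2mk_val, Matrix.trace_fin_two_of, add_zero]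
    rw [htr] at h1 h2
    rw [← h1, ← h2]
  have key : ∀ x : F, x ^ p ^ k = x ^ p ^ l := by
    intro x
    obtain ⟨a, b, hx⟩ := exists_sq_sub_sq x
    have e1 : ∀ n : ℕ, x ^ p ^ n = (a ^ 2) ^ p ^ n - (b ^ 2) ^ p ^ n := by
      intro n
      have h3 := map_sub (iterateFrobenius F p n) (a ^ 2) (b ^ 2)
      rw [hx]
      exact h3
    rw [e1 k, e1 l, hsq a, hsq b]
  rcases le_total k l with hkl | hkl
  · obtain ⟨j, rfl⟩ := Nat.exists_eq_add_of_le hkl
    obtain ⟨a, rfl⟩ := frob_period hf hF k j key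
    rw [Nat.cast_add, Nat.cast_mul, ZMod.natCast_self, zero_mul, add_zero]
  · obtain ⟨j, rfl⟩ := Nat.exists_eq_add_of_le hkl
    obtain ⟨a, rfl⟩ := frob_period hf hF l j (fun x => (key x).symm)
    rw [Nat.cast_add, Nat.cast_mul, ZMod.natCast_self, zero_mul, add_zero]

theorem isSquare_ratio [Fintype F] (hF : ringChar F ≠ 2) {a b : F} (ha : a ≠ 0) (hb : b ≠ 0)
    (hna : ¬ IsSquare a) (hnb : ¬ IsSquare b) : IsSquare (a * b⁻¹) := by
  have h1 := (FiniteField.pow_dichotomy hF ha).resolve_left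
    (fun h => hna ((FiniteField.isSquare_iff hF ha).mpr h))
  have h2 := (FiniteField.pow_dichotomy hF hb).resolve_left
    (fun h => hnb ((FiniteField.isSquare_iff hF hb).mpr h))
  rw [FiniteField.isSquare_iff hF (mul_ne_zero ha (inv_ne_zero hb)), mul_pow, inv_pow, h1, h2]
  simp

theorem theta_val_of (c : Fˣ) (τ : F →+* F) {X : Matrix.SpecialLinearGroup (Fin 2) F} {a b c' d : F}
    (hX : (X : Matrix (Fin 2) (Fin 2) F) = !![a, b; c', d]) :
    ((thetaHom c τ X : Matrix.SpecialLinearGroup (Fin 2) F) : Matrix (Fin 2) (Fin 2) F) =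
      !![τ a, c * τ b; ((c⁻¹ : Fˣ) : F) * τ c', τ d] := by
  rw [theta_val, hX]; rfl

/-- squares give inner automorphisms -/
theorem theta_sq_inner [Finite F] (e : Fˣ) (X : Matrix.SpecialLinearGroup (Fin 2) F) :
    hE (e : F) * X * (hE (e : F))⁻¹ = thetaHom (e * e) (RingHom.id F) X := by
  obtain ⟨a, b, c', d, hX, -⟩ := sl2_eta X
  rw [mul_inv_eq_iff_eq_mul]
  apply Subtype.ext
  simp only [Matrix.SpecialLinearGroup.coe_mul, hE_val e.ne_zero, theta_val_of _ _ hX, hX,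
    Matrix.mul_fin_two, RingHom.id_apply, mul_inv, Units.val_mul, Units.val_inv_eq_inv_val]
  have he : (e : F) ≠ 0 := e.ne_zero
  refine mat2_ext ?_ ?_ ?_ ?_ <;> first | (field_simp; ring) | field_simp | ring

theorem theta_mul_id [Finite F] (c c' : Fˣ) :
    thetaAut (c * c') (RingHom.id F) = thetaAut c (RingHom.id F) * thetaAut c' (RingHom.id F) := by
  ext x
  obtain ⟨X, rfl⟩ := pr_surj x
  rw [MulAut.mul_apply, thetaAut_pr, thetaAut_pr, thetaAut_pr]
  congr 1
  obtain ⟨a, b, c'', d, hX, -⟩ := sl2_eta X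
  apply Subtype.ext
  rw [theta_val_of _ _ hX, theta_val_of _ _ (theta_val_of _ _ hX)]
  simp only [RingHom.id_apply, mul_inv, Units.val_mul, Units.val_inv_eq_inv_val]
  have hc : (c : F) ≠ 0 := c.ne_zero
  have hc' : (c' : F) ≠ 0 := c'.ne_zero
  refine mat2_ext ?_ ?_ ?_ ?_ <;> first | (field_simp; ring) | field_simp | ring

theorem theta_id_not_inner [Fintype F] (h2 : (2 : F) ≠ 0) {a₀ : F} (ha₀ : ¬ IsSquare a₀) (ha₀0 : a₀ ≠ 0)
    (g : Matrix.ProjectiveSpecialLinearGroup (Fin 2) F)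
    (hg : MulAut.conj g = thetaAut (Units.mk0 a₀ ha₀0) (RingHom.id F)) : False := by
  obtain ⟨Z, rfl⟩ := pr_surj g
  have h1 := DFunLike.congr_fun hg (pr (sl2U 1))
  rw [MulAut.conj_apply, thetaAut_pr, theta_U, ← map_inv, ← map_mul, ← map_mul, Units.val_mk0,
    RingHom.id_apply, mul_one] at h1
  rcases (pr_eq_iff _ _).mp h1 with h3 | h3
  · have hconj : IsConj (sl2U (1 : F)) (sl2U a₀) := isConj_iff.mpr ⟨Z, h3⟩
    rw [sl2U_isConj_iff one_ne_zero ha₀0, one_mul] at hconj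
    exact ha₀ hconj
  · have ht := congrArg (fun X : Matrix.SpecialLinearGroup (Fin 2) F =>
      (X : Matrix (Fin 2) (Fin 2) F).trace) h3
    simp only [sl2_trace_conj, sl2NegOne_mul_val, Matrix.trace_neg, sl2U_val,
      Matrix.trace_fin_two_of] at ht
    have h4 : (2 : F) * 2 = 0 := by linear_combination ht
    rcases mul_eq_zero.mp h4 with h5 | h5 <;> exact h2 h5

theorem coprime_pow_sub_one {p f : ℕ} (hp : p.Prime) (hf : 1 ≤ f) : Nat.Coprime p (p ^ f - 1) := by
  rw [Nat.Prime.coprime_iff_not_dvd hp]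
  intro hd
  have hq1 : 1 ≤ p ^ f := Nat.one_le_pow _ _ hp.pos
  have hd2 : p ∣ p ^ f := dvd_pow_self p (by omega)
  have h3 := Nat.dvd_sub hd2 hd
  rw [Nat.sub_sub_self hq1] at h3
  exact hp.one_lt.ne' (Nat.dvd_one.mp h3)

theorem out_psl2 [Fintype F] {p f : ℕ} [Fact p.Prime] (hf : 1 ≤ f) (hF : Fintype.card F = p ^ f) :
    ∃ φ : Cfsg.Out (Matrix.ProjectiveSpecialLinearGroup (Fin 2) F) →* Multiplicative (ZMod f),
      Function.Surjective φ ∧ IsCyclic φ.ker ∧ Nat.card φ.ker = Nat.gcd 2 (p ^ f - 1) := by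
  classical
  have : NeZero f := ⟨by omega⟩
  have : CharP F p := charP_of_card_eq_prime_pow hF
  have hp : p.Prime := Fact.out
  have hstruct : ∀ ψ : MulAut (Matrix.ProjectiveSpecialLinearGroup (Fin 2) F),
      ∃ (g : Matrix.ProjectiveSpecialLinearGroup (Fin 2) F) (c : Fˣ) (τ : F →+* F) (k : ℕ),
        (∀ x : F, τ x = x ^ p ^ k) ∧ ψ = MulAut.conj g⁻¹ * thetaAut c τ := by
    intro ψ
    obtain ⟨g, c, τ, k, hk, h⟩ := structure_thm hF ψ
    refine ⟨g, c, τ, k, hk, ?_⟩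
    have h' : MulAut.conj g * ψ = thetaAut c τ := by
      ext x
      obtain ⟨X, rfl⟩ := pr_surj x
      rw [thetaAut_pr, ← h X]; rfl
    rw [← h', ← mul_assoc, ← map_mul, inv_mul_cancel, map_one, one_mul]
  have hrel : ∀ (g : Matrix.ProjectiveSpecialLinearGroup (Fin 2) F) (c : Fˣ) (τ : F →+* F) (k : ℕ),
      (∀ x : F, τ x = x ^ p ^ k) → Rel p k (MulAut.conj g⁻¹ * thetaAut c τ) := by
    intro g c τ k hk
    have h := rel_mul (rel_conj p g⁻¹) (rel_theta c τ hk)
    rwa [zero_add] at h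
  have hex : ∀ ψ : MulAut (Matrix.ProjectiveSpecialLinearGroup (Fin 2) F), ∃ k : ℕ, Rel p k ψ := by
    intro ψ
    obtain ⟨g, c, τ, k, hk, h⟩ := hstruct ψ
    exact ⟨k, h ▸ hrel g c τ k hk⟩
  have hφ₀ : ∀ (ψ : MulAut (Matrix.ProjectiveSpecialLinearGroup (Fin 2) F)) (k : ℕ), Rel p k ψ →
      Multiplicative.ofAdd ((Classical.choose (hex ψ) : ℕ) : ZMod f) =
        Multiplicative.ofAdd ((k : ℕ) : ZMod f) := by
    intro ψ k hk
    rw [rel_unique hf hF (Classical.choose_spec (hex ψ)) hk]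
  let φ₀ : MulAut (Matrix.ProjectiveSpecialLinearGroup (Fin 2) F) →* Multiplicative (ZMod f) :=
    { toFun := fun ψ => Multiplicative.ofAdd ((Classical.choose (hex ψ) : ℕ) : ZMod f)
      map_one' := by
        rw [hφ₀ 1 0 (rel_one p)]; simp
      map_mul' := fun ψ ψ' => by
        obtain ⟨k, hk⟩ := hex ψ
        obtain ⟨l, hl⟩ := hex ψ'
        rw [hφ₀ _ _ (rel_mul hk hl), hφ₀ _ _ hk, hφ₀ _ _ hl, Nat.cast_add, ofAdd_add] }
  have hφ₀' : ∀ (ψ : MulAut (Matrix.ProjectiveSpecialLinearGroup (Fin 2) F)) (k : ℕ), Rel p k ψ →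
      φ₀ ψ = Multiplicative.ofAdd ((k : ℕ) : ZMod f) := hφ₀
  have hInn : Cfsg.Inn (Matrix.ProjectiveSpecialLinearGroup (Fin 2) F) ≤ φ₀.ker := by
    rintro _ ⟨g, rfl⟩
    rw [MonoidHom.mem_ker, hφ₀' _ 0 (rel_conj p g)]; simp
  let φ : Cfsg.Out (Matrix.ProjectiveSpecialLinearGroup (Fin 2) F) →* Multiplicative (ZMod f) :=
    QuotientGroup.lift (Cfsg.Inn (Matrix.ProjectiveSpecialLinearGroup (Fin 2) F)) φ₀ hInn
  have hφ : ∀ ψ : MulAut (Matrix.ProjectiveSpecialLinearGroup (Fin 2) F),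
      φ (QuotientGroup.mk ψ) = φ₀ ψ := fun ψ => rfl
  have hconj1 : ∀ g : Matrix.ProjectiveSpecialLinearGroup (Fin 2) F,
      (QuotientGroup.mk (MulAut.conj g) : Cfsg.Out (Matrix.ProjectiveSpecialLinearGroup (Fin 2) F)) = 1 :=
    fun g => (QuotientGroup.eq_one_iff _).mpr ⟨g, rfl⟩
  have hker : ∀ x : Cfsg.Out (Matrix.ProjectiveSpecialLinearGroup (Fin 2) F), x ∈ φ.ker →
      ∃ c : Fˣ, x = QuotientGroup.mk (thetaAut c (RingHom.id F)) := by
    intro x hx
    obtain ⟨ψ, rfl⟩ := QuotientGroup.mk_surjective x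
    obtain ⟨g, c, τ, k, hk, h⟩ := hstruct ψ
    refine ⟨c, ?_⟩
    have hr : Rel p k ψ := h ▸ hrel g c τ k hk
    rw [MonoidHom.mem_ker, hφ, hφ₀' ψ k hr] at hx
    have hk0 : ((k : ℕ) : ZMod f) = 0 := by simpa using hx
    obtain ⟨a, rfl⟩ := (ZMod.natCast_eq_zero_iff k f).mp hk0
    have hτid : τ = RingHom.id F := by
      ext x
      rw [hk, pow_frob_mul hF a x]; rfl
    rw [h, hτid, QuotientGroup.mk_mul, hconj1, one_mul]
  have hmem : ∀ c : Fˣ, (QuotientGroup.mk (thetaAut c (RingHom.id F)) :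
      Cfsg.Out (Matrix.ProjectiveSpecialLinearGroup (Fin 2) F)) ∈ φ.ker := by
    intro c
    rw [MonoidHom.mem_ker, hφ, hφ₀' _ 0 (rel_theta c _ (fun x => by simp))]; simp
  have hsq : ∀ e : Fˣ, (QuotientGroup.mk (thetaAut (e * e) (RingHom.id F)) :
      Cfsg.Out (Matrix.ProjectiveSpecialLinearGroup (Fin 2) F)) = 1 := by
    intro e
    rw [QuotientGroup.eq_one_iff]
    refine ⟨pr (hE (e : F)), ?_⟩
    ext x
    obtain ⟨X, rfl⟩ := pr_surj x
    rw [MulAut.conj_apply, thetaAut_pr, ← map_inv, ← map_mul, ← map_mul, theta_sq_inner]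
  have hsq' : ∀ c : Fˣ, IsSquare (c : F) → (QuotientGroup.mk (thetaAut c (RingHom.id F)) :
      Cfsg.Out (Matrix.ProjectiveSpecialLinearGroup (Fin 2) F)) = 1 := by
    intro c hc
    obtain ⟨e, he⟩ := hc
    have he0 : e ≠ 0 := by
      rintro rfl
      exact c.ne_zero (by rw [he, mul_zero])
    have hce : c = Units.mk0 e he0 * Units.mk0 e he0 := Units.ext (by simp [he])
    rw [hce, hsq]
  refine ⟨φ, ?_, ?_⟩
  · intro z
    refine ⟨QuotientGroup.mk (thetaAut 1 (iterateFrobenius F p (Multiplicative.toAdd z).val)), ?_⟩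
    rw [hφ, hφ₀' _ _ (rel_theta 1 _ (fun x => rfl)), ZMod.natCast_zmod_val]
    rfl
  · by_cases h2 : (2 : F) = 0
    · have hp2 : p = 2 := by
        have h3 : ((2 : ℕ) : F) = 0 := by exact_mod_cast h2
        exact (Nat.prime_dvd_prime_iff_eq hp Nat.prime_two).mp ((CharP.cast_eq_zero_iff F p 2).mp h3)
      have hchar : ringChar F = 2 := by rw [ringChar.eq F p, hp2]
      have hbot : φ.ker = ⊥ := by
        rw [Subgroup.eq_bot_iff_forall]
        intro x hx
        obtain ⟨c, rfl⟩ := hker x hx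
        exact hsq' c (FiniteField.isSquare_of_char_two hchar _)
      rw [hbot]
      refine ⟨inferInstance, ?_⟩
      rw [Subgroup.card_bot]
      have h := coprime_pow_sub_one hp hf
      rw [hp2] at h ⊢
      exact Eq.symm h
    · have hp2 : p ≠ 2 := by
        rintro rfl
        exact h2 (by exact_mod_cast CharP.cast_eq_zero F 2)
      have hchar : ringChar F ≠ 2 := by rw [ringChar.eq F p]; exact hp2
      obtain ⟨a₀, ha₀⟩ := FiniteField.exists_nonsquare hchar
      have ha₀0 : a₀ ≠ 0 := by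
        rintro rfl
        exact ha₀ ⟨0, by simp⟩
      have hy : (QuotientGroup.mk (thetaAut (Units.mk0 a₀ ha₀0) (RingHom.id F)) :
          Cfsg.Out (Matrix.ProjectiveSpecialLinearGroup (Fin 2) F)) ≠ 1 := by
        intro h
        rw [QuotientGroup.eq_one_iff] at h
        obtain ⟨g, hg⟩ := h
        exact theta_id_not_inner h2 ha₀ ha₀0 g hg
      have hset : ∀ x : Cfsg.Out (Matrix.ProjectiveSpecialLinearGroup (Fin 2) F), x ∈ φ.ker →
          x = 1 ∨ x = QuotientGroup.mk (thetaAut (Units.mk0 a₀ ha₀0) (RingHom.id F)) := by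
        intro x hx
        obtain ⟨c, rfl⟩ := hker x hx
        by_cases hcs : IsSquare (c : F)
        · left
          exact hsq' c hcs
        · right
          obtain ⟨e, he⟩ := isSquare_ratio hchar c.ne_zero ha₀0 hcs ha₀
          have he0 : e ≠ 0 := by
            rintro rfl
            rw [mul_zero] at he
            exact (mul_ne_zero c.ne_zero (inv_ne_zero ha₀0)) he
          have hce : c = Units.mk0 a₀ ha₀0 * (Units.mk0 e he0 * Units.mk0 e he0) := by
            apply Units.ext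
            simp only [Units.val_mul, Units.val_mk0]
            rw [← he]
            field_simp
          rw [hce, theta_mul_id, QuotientGroup.mk_mul, hsq, mul_one]
      have hcard : Nat.card φ.ker = 2 := by
        rw [Nat.card_eq_two_iff]
        refine ⟨⟨1, Subgroup.one_mem _⟩, ⟨_, hmem (Units.mk0 a₀ ha₀0)⟩, ?_, ?_⟩
        · intro h
          exact hy (congrArg Subtype.val h).symm
        · ext ⟨x, hx⟩
          simp only [Set.mem_insert_iff, Set.mem_singleton_iff, Set.mem_univ, iff_true]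
          rcases hset x hx with h | h
          · left; exact Subtype.ext h
          · right; exact Subtype.ext h
      refine ⟨?_, ?_⟩
      · have : Fact (Nat.Prime 2) := ⟨Nat.prime_two⟩
        exact isCyclic_of_prime_card (p := 2) hcard
      · rw [hcard]
        have hodd : Odd (p ^ f) := (hp.odd_of_ne_two hp2).pow
        obtain ⟨m, hm⟩ := hodd
        have hdvd : 2 ∣ p ^ f - 1 := ⟨m, by omega⟩
        exact (Nat.gcd_eq_left hdvd).symm

end Cfsg.Agent.Helper18.OutPSL2
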