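import Mathlib
import Cfsg.Prelude.Def_ClassicalGeometry

set_option autoImplicit false

namespace Cfsg.Agent.Helper18.SpQc

open Matrix

/-- In characteristic 2 a symmetric matrix of odd size with zero diagonal has determinant 0. -/
theorem det_symm_zero_diag {F : Type*} [Field F] (hch : (2 : F) = 0) {n : ℕ} (hn : Odd n)
    (G : Matrix (Fin n) (Fin n) F) (hs : ∀ i j, G i j = G j i) (hz : ∀ i, G i i = 0) :
    G.det = 0 := by
  have hneg : ∀ a : F, -a = a := by
    intro a
    have h : a + a = 0 := by rw [← two_mul, hch, zero_mul]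
    linear_combination (-1 : F) * h
  have hsign : ∀ σ : Equiv.Perm (Fin n), ((Equiv.Perm.sign σ : ℤ) : F) = 1 := by
    intro σ
    rcases Int.units_eq_one_or (Equiv.Perm.sign σ) with h | h <;> simp [h, hneg]
  rw [Matrix.det_apply']
  have hterm : ∀ σ : Equiv.Perm (Fin n),
      ((Equiv.Perm.sign σ : ℤ) : F) * ∏ i, G (σ i) i = ∏ i, G (σ i) i := by
    intro σ; rw [hsign, one_mul]
  simp only [hterm]
  refine Finset.sum_involution (fun σ _ => σ⁻¹) ?_ ?_ ?_ ?_
  · intro σ _
    have h1 : ∏ i, G (σ⁻¹ i) i = ∏ i, G (σ i) i := by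
      rw [← Equiv.prod_comp σ (fun i => G (σ⁻¹ i) i)]
      refine Finset.prod_congr rfl (fun i _ => ?_)
      have h0 : σ⁻¹ (σ i) = i := by simp
      rw [h0]
      exact hs _ _
    rw [h1, ← two_mul, hch, zero_mul]
  · intro σ _ hne heq
    apply hne
    have hσ2 : σ ^ 2 = 1 := by
      rw [pow_two]
      nth_rewrite 1 [← heq]
      simp
    obtain ⟨i, hi⟩ : ∃ i, σ i = i := by
      by_contra hcon
      push Not at hcon
      have hsupp : σ.support = Finset.univ := by
        ext i; simp [Equiv.Perm.mem_support, hcon i]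
      have h2 := Equiv.Perm.two_dvd_card_support hσ2
      rw [hsupp, Finset.card_univ, Fintype.card_fin] at h2
      exact (Nat.not_even_iff_odd.mpr hn) (even_iff_two_dvd.mpr h2)
    exact Finset.prod_eq_zero (Finset.mem_univ i) (by rw [hi]; exact hz i)
  · intro σ _; exact Finset.mem_univ _
  · intro σ _; simp

section
variable {F : Type*} [Field F] {d : ℕ}

theorem sf_self (v : Fin d ⊕ Fin d → F) : Cfsg.sympForm d F v v = 0 := by
  unfold Cfsg.sympForm
  simp only [dotProduct, Matrix.mulVec, Matrix.J, Fintype.sum_sum_type, Matrix.fromBlocks_apply₁₁,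
    Matrix.fromBlocks_apply₁₂, Matrix.fromBlocks_apply₂₁, Matrix.fromBlocks_apply₂₂,
    Matrix.zero_apply, Matrix.neg_apply, Matrix.one_apply, zero_mul, Finset.sum_const_zero,
    zero_add, add_zero, neg_mul, ite_mul, one_mul, Finset.sum_neg_distrib, Finset.sum_ite_eq,
    Finset.mem_univ, if_true, mul_neg]
  rw [neg_add_eq_zero]
  exact Finset.sum_congr rfl (fun a _ => mul_comm _ _)

theorem sf_nondeg (w : Fin d ⊕ Fin d → F) (h : ∀ z, Cfsg.sympForm d F z w = 0) : w = 0 := by
  unfold Cfsg.sympForm at h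
  have h1 : Matrix.J (Fin d) F *ᵥ w = 0 := by
    apply dotProduct_eq_zero
    intro z; rw [dotProduct_comm]; exact h z
  have h2 : (Matrix.J (Fin d) F * Matrix.J (Fin d) F) *ᵥ w = 0 := by
    rw [← Matrix.mulVec_mulVec, h1, Matrix.mulVec_zero]
  rw [Matrix.J_squared, Matrix.neg_mulVec, Matrix.one_mulVec, neg_eq_zero] at h2
  exact h2

/-- `sympForm` as a bilinear map. -/
noncomputable def sfB (d : ℕ) (F : Type*) [Field F] :
    (Fin d ⊕ Fin d → F) →ₗ[F] (Fin d ⊕ Fin d → F) →ₗ[F] F :=
  LinearMap.mk₂ F (fun u v => Cfsg.sympForm d F u v)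
    (fun u u' v => by simp [Cfsg.sympForm, add_dotProduct])
    (fun c u v => by simp [Cfsg.sympForm, smul_dotProduct])
    (fun u v v' => by simp [Cfsg.sympForm, Matrix.mulVec_add, dotProduct_add])
    (fun c u v => by simp [Cfsg.sympForm, Matrix.mulVec_smul, dotProduct_smul])

theorem sfB_apply (u v : Fin d ⊕ Fin d → F) : sfB d F u v = Cfsg.sympForm d F u v := rfl

end

/-- (L10) parity: an involution `x` of `Sp_2d(F)`, char 2, with `sf v (x v) = 0` for all `v` and
fixed space of dimension `d` forces `d` even.  (Only `halt` and `hker` are really used: the form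
`(u, v) ↦ sf u ((x - 1) v)` is alternating with radical `ker (x - 1)`, so `rank (x - 1)` is even.) -/
theorem even_of_alt {F : Type*} [Field F] [Fintype F] {d : ℕ} (hch : (2 : F) = 0)
    (x : GL (Fin d ⊕ Fin d) F) (hx : x ∈ Cfsg.spGL d F)
    (hx2 : (x : Matrix (Fin d ⊕ Fin d) (Fin d ⊕ Fin d) F) *
      (x : Matrix (Fin d ⊕ Fin d) (Fin d ⊕ Fin d) F) = 1)
    (halt : ∀ v, Cfsg.sympForm d F v
      ((x : Matrix (Fin d ⊕ Fin d) (Fin d ⊕ Fin d) F) *ᵥ v) = 0)
    (hker : Module.finrank F (LinearMap.ker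
      (Matrix.toLin' (x : Matrix (Fin d ⊕ Fin d) (Fin d ⊕ Fin d) F) - 1)) = d) :
    Even d := by
  classical
  by_contra hodd
  rw [Nat.not_even_iff_odd] at hodd
  have hneg : ∀ a : F, -a = a := by
    intro a
    have h : a + a = 0 := by rw [← two_mul, hch, zero_mul]
    linear_combination (-1 : F) * h
  obtain ⟨Nl, hNl⟩ : ∃ Nl : (Fin d ⊕ Fin d → F) →ₗ[F] (Fin d ⊕ Fin d → F),
      Nl = Matrix.toLin' (x : Matrix (Fin d ⊕ Fin d) (Fin d ⊕ Fin d) F) - 1 := ⟨_, rfl⟩
  rw [← hNl] at hker
  have hb : ∀ v, sfB d F v (Nl v) = 0 := by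
    intro v
    rw [hNl, LinearMap.sub_apply, Matrix.toLin'_apply, Module.End.one_apply, map_sub, sfB_apply,
      sfB_apply, halt, sf_self, sub_zero]
  have hc : ∀ u v, sfB d F u (Nl v) = sfB d F v (Nl u) := by
    intro u v
    have h := hb (u + v)
    rw [map_add, map_add, LinearMap.add_apply, map_add, map_add, hb u, hb v] at h
    have h' : sfB d F u (Nl v) = - sfB d F v (Nl u) := by linear_combination h
    rw [h', hneg]
  have hrk : Module.finrank F (LinearMap.range Nl) = d := by
    have h1 := LinearMap.finrank_range_add_finrank_ker Nl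
    rw [hker, Module.finrank_fintype_fun_eq_card, Fintype.card_sum, Fintype.card_fin] at h1
    omega
  let b : Module.Basis (Fin d) F (LinearMap.range Nl) := Module.finBasisOfFinrankEq F _ hrk
  have hu : ∀ j, ∃ u, Nl u = (b j : Fin d ⊕ Fin d → F) := fun j => (b j).2
  choose u hu using hu
  let G : Matrix (Fin d) (Fin d) F := fun i j => sfB d F (u i) (Nl (u j))
  have hGs : ∀ i j, G i j = G j i := fun i j => hc _ _
  have hGz : ∀ i, G i i = 0 := fun i => hb _
  have hdet := det_symm_zero_diag hch hodd G hGs hGz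
  obtain ⟨c, hc0, hGc⟩ := Matrix.exists_mulVec_eq_zero_iff.mpr hdet
  apply hc0
  have hw : ∀ z, sfB d F z (Nl (∑ j, c j • u j)) = 0 := by
    intro z
    rw [hc z]
    have hz : Nl z = ∑ j, (b.repr ⟨Nl z, LinearMap.mem_range_self Nl z⟩ j) • Nl (u j) := by
      have h1 := b.sum_repr ⟨Nl z, LinearMap.mem_range_self Nl z⟩
      have h2 := congrArg (Submodule.subtype (LinearMap.range Nl)) h1
      simp only [map_sum, map_smul, Submodule.subtype_apply] at h2
      refine h2.symm.trans ?_
      exact Finset.sum_congr rfl (fun j _ => by rw [hu])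
    rw [hz, map_sum]
    refine Finset.sum_eq_zero (fun j _ => ?_)
    rw [map_smul, map_sum, LinearMap.sum_apply]
    have h3 : ∑ i, sfB d F (c i • u i) (Nl (u j)) = (G *ᵥ c) j := by
      simp only [Matrix.mulVec, dotProduct, map_smul, LinearMap.smul_apply, smul_eq_mul]
      refine Finset.sum_congr rfl (fun i _ => ?_)
      rw [hGs j i, mul_comm]
    rw [h3, hGc]
    simp
  have hNv : Nl (∑ j, c j • u j) = 0 := sf_nondeg _ (fun z => hw z)
  have hsum : ∑ j, c j • b j = 0 := by
    apply Subtype.ext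
    rw [Submodule.coe_sum, Submodule.coe_zero, ← hNv, map_sum]
    refine Finset.sum_congr rfl (fun j _ => ?_)
    rw [Submodule.coe_smul, map_smul, hu]
  have hli := Fintype.linearIndependent_iff.mp b.linearIndependent c hsum
  funext j
  exact hli j

end Cfsg.Agent.Helper18.SpQc
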